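import Cfsg.Prelude.Def_TwoFusion
import Cfsg.Prelude.Def_SporadicB
import Cfsg.Agent.S0111
import Cfsg.Agent.H993.AltSq

/-!
# A 2-central involution with centralizer `⟨J⟩ × T`

* `decomp`, `exists_iso` : elements of `⟨J⟩ × T`, the isomorphism with `Z₂ × T`.
* `exists_conj_mem` : if `G` has no normal subgroup of index 2, some conjugate of a 2-central involution `u`
  outside `T` lies in `T` (Thompson transfer).
* `no_conj_of_sqCen` : no conjugate of `J` lies in `T` if `T` has the property `SqCen`.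
* `all_conj` : all involutions are conjugate to `J` if the involutions of `T` are conjugate in `T`.
-/

set_option autoImplicit false

namespace Cfsg.Agent.H993.TwoAm

open Cfsg AltSq

variable {G : Type*} [Group G]

theorem comm_of {J : G} {T C : Subgroup G} (hd : IsInternalDirectProduct (Subgroup.zpowers J) T C) {t : G}
    (ht : t ∈ T) : J * t = t * J :=
  hd.2.2.1 J (Subgroup.mem_zpowers J) t ht

theorem not_mem_of {J : G} (hJ : orderOf J = 2) {T C : Subgroup G}
    (hd : IsInternalDirectProduct (Subgroup.zpowers J) T C) : J ∉ T := by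
  intro h
  have : J ∈ Subgroup.zpowers J ⊓ T := ⟨Subgroup.mem_zpowers J, h⟩
  rw [hd.2.2.2.1, Subgroup.mem_bot] at this
  rw [this, orderOf_one] at hJ
  exact absurd hJ (by norm_num)

theorem sq_of {J : G} (hJ : orderOf J = 2) : J * J = 1 := by
  rw [← pow_two, ← hJ, pow_orderOf_eq_one]

theorem decomp {J : G} (hJ : orderOf J = 2) {T C : Subgroup G}
    (hd : IsInternalDirectProduct (Subgroup.zpowers J) T C) {c : G} (hc : c ∈ C) :
    ∃ t ∈ T, c = t ∨ c = J * t := by
  have hJJ := sq_of hJ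
  let D : Subgroup G :=
    { carrier := {c | ∃ t ∈ T, c = t ∨ c = J * t}
      one_mem' := ⟨1, one_mem _, Or.inl rfl⟩
      mul_mem' := by
        rintro a b ⟨s, hs, ha⟩ ⟨t, ht, hb⟩
        refine ⟨s * t, mul_mem hs ht, ?_⟩
        have h1 := comm_of hd hs
        rcases ha with rfl | rfl <;> rcases hb with rfl | rfl
        · left; rfl
        · right; rw [← mul_assoc, ← h1, mul_assoc]
        · right; rw [mul_assoc]
        · left
          calc J * s * (J * t) = J * (s * J) * t := by group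
            _ = J * (J * s) * t := by rw [h1]
            _ = (J * J) * s * t := by group
            _ = s * t := by rw [hJJ, one_mul]
      inv_mem' := by
        rintro a ⟨s, hs, ha⟩
        refine ⟨s⁻¹, inv_mem hs, ?_⟩
        rcases ha with rfl | rfl
        · left; rfl
        · right
          have h1 := comm_of hd (inv_mem hs)
          have h2 : J⁻¹ = J := by rw [inv_eq_iff_mul_eq_one, hJJ]
          rw [mul_inv_rev, h2, h1] }
  have hle : Subgroup.zpowers J ⊔ T ≤ D := by
    refine sup_le ?_ ?_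
    · rw [Subgroup.zpowers_le]
      exact ⟨1, one_mem _, Or.inr (mul_one J).symm⟩
    · intro t ht
      exact ⟨t, ht, Or.inl rfl⟩
  rw [← hd.2.2.2.2] at hc
  exact hle hc

theorem exists_iso {J : G} (hJ : orderOf J = 2) {T C : Subgroup G}
    (hd : IsInternalDirectProduct (Subgroup.zpowers J) T C) :
    Nonempty (↥C ≃* Multiplicative (ZMod 2) × ↥T) := by
  have hcomm : ∀ (m : Subgroup.zpowers J) (n : T), Commute ((Subgroup.zpowers J).subtype m) (T.subtype n) :=
    fun m n => hd.2.2.1 m m.2 n n.2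
  let f := MonoidHom.noncommCoprod (Subgroup.zpowers J).subtype T.subtype hcomm
  have hinj : Function.Injective f := by
    rw [MonoidHom.noncommCoprod_injective]
    refine ⟨Subgroup.subtype_injective _, Subgroup.subtype_injective _, ?_⟩
    rw [Subgroup.range_subtype, Subgroup.range_subtype, disjoint_iff]
    exact hd.2.2.2.1
  have hr : f.range = C := by
    rw [MonoidHom.noncommCoprod_range, Subgroup.range_subtype, Subgroup.range_subtype]
    exact hd.2.2.2.2
  have e1 : ↥C ≃* Subgroup.zpowers J × T :=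
    ((MonoidHom.ofInjective hinj).trans (MulEquiv.subgroupCongr hr)).symm
  have hcard : Nat.card (Subgroup.zpowers J) = 2 := by rw [Nat.card_zpowers, hJ]
  have e2 : Multiplicative (ZMod (Nat.card (Subgroup.zpowers J))) ≃* Subgroup.zpowers J :=
    zmodCyclicMulEquiv inferInstance
  rw [hcard] at e2
  exact ⟨e1.trans (MulEquiv.prodCongr e2.symm (MulEquiv.refl _))⟩

variable [Finite G]

/-- Thompson transfer -/
theorem exists_conj_mem (h2 : ∀ N : Subgroup G, N.Normal → N.index ≠ 2) {J : G} (hJ : orderOf J = 2)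
    {T : Subgroup G} (hd : IsInternalDirectProduct (Subgroup.zpowers J) T (Subgroup.centralizer ({J} : Set G)))
    (P : Sylow 2 G) (hP : ∀ x ∈ P, x * J = J * x) (hJP : J ∈ P) {u : G} (hu : orderOf u = 2) (huP : u ∈ P)
    (huT : u ∉ T) : ∃ g : G, g * u * g⁻¹ ∈ T := by
  have hJT := not_mem_of hJ hd
  have hPC : ∀ x ∈ P, x ∈ Subgroup.centralizer ({J} : Set G) := by
    intro x hx
    rw [Subgroup.mem_centralizer_singleton_iff]
    exact hP x hx
  have hrel : ((P : Subgroup G) ⊓ T).relIndex (P : Subgroup G) = 2 := by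
    rw [Subgroup.inf_relIndex_left, Subgroup.relIndex, Subgroup.index_eq_two_iff]
    refine ⟨⟨J, hJP⟩, fun b => ?_⟩
    obtain ⟨t, ht, hb⟩ := decomp hJ hd (hPC b b.2)
    rw [Subgroup.mem_subgroupOf, Subgroup.mem_subgroupOf]
    show Xor ((b : G) * J ∈ T) ((b : G) ∈ T)
    rcases hb with hb | hb
    · right
      rw [hb]
      refine ⟨ht, fun h => hJT ?_⟩
      have := T.mul_mem (T.inv_mem ht) h
      rwa [← mul_assoc, inv_mul_cancel, one_mul] at this
    · left
      rw [hb]
      constructor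
      · rw [comm_of hd ht, mul_assoc, sq_of hJ, mul_one]
        exact ht
      · intro h
        apply hJT
        have := T.mul_mem h (T.inv_mem ht)
        rwa [mul_assoc, mul_inv_cancel, mul_one] at this
  rcases S0111.result P ((P : Subgroup G) ⊓ T) inf_le_left hrel u hu huP (fun h => huT h.2) with h | h
  · obtain ⟨M, hM, hi, -⟩ := h
    exact absurd hi (h2 M hM)
  · obtain ⟨g, hg⟩ := h
    exact ⟨g, hg.2⟩

omit [Finite G] in
theorem no_conj_of_sqCen {J : G} (hJ : orderOf J = 2)
    {T : Subgroup G} (hd : IsInternalDirectProduct (Subgroup.zpowers J) T (Subgroup.centralizer ({J} : Set G)))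
    (hT : SqCen ↥T) (g : G) : g * J * g⁻¹ ∉ T := by
  intro hg
  set u := g * J * g⁻¹ with hu
  have huu : u * u = 1 := by
    rw [hu]
    calc g * J * g⁻¹ * (g * J * g⁻¹) = g * (J * J) * g⁻¹ := by group
      _ = 1 := by rw [sq_of hJ]; group
  have h1 := hT ⟨u, hg⟩ (Subtype.ext huu)
  -- the squares lie in the conjugate of `T`
  have h2 : Subgroup.closure {z : T | ∃ x : T, x * ⟨u, hg⟩ = ⟨u, hg⟩ * x ∧ z = x * x} ≤
      (T.comap (MulAut.conj g⁻¹).toMonoidHom).comap T.subtype := by
    rw [Subgroup.closure_le]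
    rintro z ⟨x, hx, rfl⟩
    show g⁻¹ * ((x : G) * x) * g⁻¹⁻¹ ∈ T
    have hx' : (x : G) * u = u * x := congrArg Subtype.val hx
    have hxc : g⁻¹ * (x : G) * g ∈ Subgroup.centralizer ({J} : Set G) := by
      rw [Subgroup.mem_centralizer_singleton_iff]
      have : g⁻¹ * u * g = J := by rw [hu]; group
      calc g⁻¹ * (x : G) * g * J = g⁻¹ * (x * (g * J * g⁻¹)) * g := by group
        _ = g⁻¹ * ((g * J * g⁻¹) * x) * g := by rw [← hu, hx']
        _ = J * (g⁻¹ * (x : G) * g) := by group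
    obtain ⟨t, ht, hc⟩ := decomp hJ hd hxc
    have hsq : g⁻¹ * ((x : G) * x) * g⁻¹⁻¹ = (g⁻¹ * (x : G) * g) * (g⁻¹ * (x : G) * g) := by group
    rw [hsq]
    rcases hc with hc | hc
    · rw [hc]; exact mul_mem ht ht
    · rw [hc]
      have : J * t * (J * t) = t * t := by
        calc J * t * (J * t) = J * (t * J) * t := by group
          _ = J * (J * t) * t := by rw [comm_of hd ht]
          _ = (J * J) * (t * t) := by group
          _ = t * t := by rw [sq_of hJ, one_mul]
      rw [this]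
      exact mul_mem ht ht
  have h3 := h2 h1
  have h4 : g⁻¹ * u * g⁻¹⁻¹ ∈ T := h3
  have h5 : g⁻¹ * u * g⁻¹⁻¹ = J := by rw [hu]; group
  rw [h5] at h4
  exact not_mem_of hJ hd h4

/-- If the involutions of `T` are conjugate in `T`, all involutions of `G` are conjugate to `J`. -/
theorem all_conj (h2 : ∀ N : Subgroup G, N.Normal → N.index ≠ 2) {J : G} (hJ : orderOf J = 2)
    {T : Subgroup G} (hd : IsInternalDirectProduct (Subgroup.zpowers J) T (Subgroup.centralizer ({J} : Set G)))
    (P : Sylow 2 G) (hP : ∀ x ∈ P, x * J = J * x) (hJP : J ∈ P)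
    (hT : ∀ a ∈ T, ∀ b ∈ T, orderOf a = 2 → orderOf b = 2 → ∃ t ∈ T, t * a * t⁻¹ = b) {u : G}
    (hu : orderOf u = 2) : ∃ g : G, g * u * g⁻¹ = J := by
  have hconj : ∀ (g x : G), orderOf x = 2 → orderOf (g * x * g⁻¹) = 2 := by
    intro g x hx
    have := orderOf_injective (MulAut.conj g).toMonoidHom (MulAut.conj g).injective x
    simpa [hx] using this
  obtain ⟨g0, hg0⟩ := exists_conj_mem h2 hJ hd P hP hJP hJ hJP (not_mem_of hJ hd)
  -- a conjugate of `u` in `P`
  obtain ⟨g1, hg1⟩ : ∃ g : G, g * u * g⁻¹ ∈ P := by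
    have hz : IsPGroup 2 (Subgroup.zpowers u) := by
      apply IsPGroup.of_card (n := 1)
      rw [Nat.card_zpowers, hu, pow_one]
    obtain ⟨Q, hQ⟩ := hz.exists_le_sylow
    obtain ⟨g, hg⟩ := MulAction.exists_smul_eq G Q P
    refine ⟨g, ?_⟩
    have h1 : u ∈ Q := hQ (Subgroup.mem_zpowers u)
    have h2 : g * u * g⁻¹ ∈ (g • Q : Sylow 2 G) := by
      rw [Sylow.smul_def]
      exact Subgroup.smul_mem_pointwise_smul u (MulAut.conj g) _ h1
    rwa [hg] at h2
  -- a conjugate of `u` in `T`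
  obtain ⟨g2, hg2⟩ : ∃ g : G, g * u * g⁻¹ ∈ T := by
    by_cases h : g1 * u * g1⁻¹ ∈ T
    · exact ⟨g1, h⟩
    · obtain ⟨g, hg⟩ := exists_conj_mem h2 hJ hd P hP hJP (hconj g1 u hu) hg1 h
      refine ⟨g * g1, ?_⟩
      have : g * g1 * u * (g * g1)⁻¹ = g * (g1 * u * g1⁻¹) * g⁻¹ := by group
      rwa [this]
  obtain ⟨t, -, ht⟩ := hT _ hg2 _ hg0 (hconj g2 u hu) (hconj g0 J hJ)
  refine ⟨g0⁻¹ * t * g2, ?_⟩
  calc g0⁻¹ * t * g2 * u * (g0⁻¹ * t * g2)⁻¹ = g0⁻¹ * (t * (g2 * u * g2⁻¹) * t⁻¹) * g0 := by group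
    _ = g0⁻¹ * (g0 * J * g0⁻¹) * g0 := by rw [ht]
    _ = J := by group

end Cfsg.Agent.H993.TwoAm
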